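import Cfsg.Agent.H720.PV.Regular
import Cfsg.Agent.H649.VanC.Descent

/-!
# Zeros of characters from a parabolic subgroup attached to `U` (helper612, S4555 / S4559)

* `vz_of_par` : split (B,N)-pair, `K' ≥ B` proper, stable under every automorphism stabilising `U`, `V = ⋂ k U k⁻¹`
  (`k ∈ K'`): every `x ∈ K'` with `C_V(x) = 1` is a `VZ` element.
* `vz_of_center` : the case `K' = N(Z(U))`, simple groups.
-/

set_option autoImplicit false

open scoped Pointwise

namespace Cfsg.Agent.H612.PTwo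

open Cfsg Cfsg.Agent.Characters Cfsg.Agent.FixBN

variable {K : Type*} [Group K] [Finite K] {P : Cfsg.BNPair K} {r : ℕ} [hr : Fact r.Prime] {U : Subgroup K}

/-- **An element of `K'` without nontrivial fixed points on the unipotent radical of `K'`.** -/
theorem vz_of_par (h : Split P r U) (K' : Subgroup K) (hB : P.B ≤ K') (hK : K' ≠ ⊤) (V : Subgroup K)
    (hV : ∀ v, v ∈ V ↔ ∀ k ∈ K', k⁻¹ * v * k ∈ U)
    (hA : ∀ β : MulAut K, (∀ u, u ∈ U ↔ β u ∈ U) → ∀ k, k ∈ K' ↔ β k ∈ K')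
    {x : K} (hx : x ∈ K') (hreg : ∀ u ∈ V, x * u = u * x → u = 1) : H713.VZ K x := by
  classical
  have : Fintype V := Fintype.ofFinite V
  obtain ⟨χ, hχ⟩ := H40.GGS.exists_no_fixed_par h K' hB hK V hV
  refine ⟨χ, fun α => ?_⟩
  obtain ⟨Q, hQ⟩ := H612.CharTwo.exists_sylow h
  obtain ⟨g, hg⟩ := MulAction.exists_smul_eq K Q (α • Q)
  -- `β = conj g⁻¹ ∘ α` stabilises `U`
  obtain ⟨β, hβ⟩ : ∃ β : MulAut K, ∀ y, β y = g⁻¹ * α y * g :=
    ⟨MulAut.conj g⁻¹ * α, fun y => by rw [MulAut.mul_apply, MulAut.conj_apply, inv_inv]⟩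
  have hβU : ∀ u, u ∈ U ↔ β u ∈ U := by
    intro u
    have h1 : ∀ y, (g * y * g⁻¹) ∈ ((g • Q : Sylow r K) : Subgroup K) ↔ y ∈ (Q : Subgroup K) := by
      intro y
      rw [Sylow.coe_subgroup_smul]
      constructor
      · intro hy
        rw [Subgroup.mem_pointwise_smul_iff_inv_smul_mem] at hy
        simpa [mul_assoc] using hy
      · intro hy
        rw [Subgroup.mem_pointwise_smul_iff_inv_smul_mem]
        simpa [mul_assoc] using hy
    have h2 : ∀ y, y ∈ ((α • Q : Sylow r K) : Subgroup K) ↔ α.symm y ∈ (Q : Subgroup K) := by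
      intro y
      rw [Sylow.pointwise_smul_def, Subgroup.mem_pointwise_smul_iff_inv_smul_mem]
      rfl
    rw [hβ, ← hQ, ← h1 (g⁻¹ * α u * g), hg, h2]
    have e : α.symm (g * (g⁻¹ * α u * g) * g⁻¹) = u := by
      have e1 : g * (g⁻¹ * α u * g) * g⁻¹ = α u := by group
      rw [e1, MulEquiv.symm_apply_apply]
    rw [e]
  have hβK := hA β hβU
  have hβV : ∀ v, v ∈ V ↔ β v ∈ V := by
    intro v
    rw [hV, hV]
    constructor
    · intro hv k hk
      have h1 := (hβK (β.symm k)).2 (by rwa [MulEquiv.apply_symm_apply])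
      have h2 := (hβU _).1 (hv _ h1)
      rwa [map_mul, map_mul, map_inv, MulEquiv.apply_symm_apply] at h2
    · intro hv k hk
      rw [hβU, map_mul, map_mul, map_inv]
      exact hv _ ((hβK k).1 hk)
  have hcl : (χ : K → ℂ) (α x) = (χ : K → ℂ) (β x) := by
    have := Core.isIrr_isClassFunction χ.2 (α x) g⁻¹
    rw [inv_inv] at this
    rw [hβ]
    exact this.symm
  rw [hcl]
  have hnorm : ∀ y ∈ K', ∀ v ∈ V, y * v * y⁻¹ ∈ V := by
    intro y hy v hv
    rw [hV] at hv ⊢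
    intro k hk
    have h1 := hv (y⁻¹ * k) (mul_mem (inv_mem hy) hk)
    have e : (y⁻¹ * k)⁻¹ * v * (y⁻¹ * k) = k⁻¹ * (y * v * y⁻¹) * k := by group
    rwa [e] at h1
  refine H720.PV.zero_of_regular V χ.2 hχ (fun u => ⟨fun hu => hnorm _ ((hβK x).1 hx) u hu, fun hu => ?_⟩)
    fun u hu hc => ?_
  · have h1 := hnorm _ (inv_mem ((hβK x).1 hx)) _ hu
    have e : (β x)⁻¹ * (β x * u * (β x)⁻¹) * (β x)⁻¹⁻¹ = u := by group
    rwa [e] at h1
  · have h1 : β.symm u ∈ V := by rw [hβV, MulEquiv.apply_symm_apply]; exact hu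
    have h2 := hreg _ h1 (by
      apply β.injective
      rw [map_mul, map_mul, MulEquiv.apply_symm_apply]
      exact hc)
    rw [← MulEquiv.apply_symm_apply β u, h2, map_one]

/-- the centre of `U` as a subgroup of `K` -/
def Zc (U : Subgroup K) : Subgroup K where
  carrier := {z | z ∈ U ∧ ∀ u ∈ U, u * z = z * u}
  mul_mem' {a b} ha hb := ⟨mul_mem ha.1 hb.1, fun u hu => by
    rw [← mul_assoc, ha.2 u hu, mul_assoc, hb.2 u hu, mul_assoc]⟩
  one_mem' := ⟨one_mem _, fun u _ => by rw [mul_one, one_mul]⟩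
  inv_mem' {a} ha := ⟨inv_mem ha.1, fun u hu => by
    have h1 := ha.2 u hu
    calc u * a⁻¹ = a⁻¹ * (a * u) * a⁻¹ := by group
      _ = a⁻¹ * (u * a) * a⁻¹ := by rw [h1]
      _ = a⁻¹ * u := by group⟩

omit [Finite K] in
theorem mem_Zc {z : K} : z ∈ Zc U ↔ z ∈ U ∧ ∀ u ∈ U, u * z = z * u := Iff.rfl

omit [Finite K] in
theorem mem_norm {Z : Subgroup K} {k : K} : k ∈ Subgroup.normalizer (Z : Set K) ↔ ∀ z, z ∈ Z ↔ k * z * k⁻¹ ∈ Z :=
  Subgroup.mem_normalizer_iff

theorem Zc_ne_bot (h : Split P r U) (hne : P.S.Nonempty) : Zc U ≠ ⊥ := by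
  obtain ⟨s, hs⟩ := hne
  obtain ⟨V, hV⟩ := h.node s hs
  obtain ⟨u, hu, huV⟩ := hV.ne
  have hU : Nontrivial U := by
    refine ⟨⟨u, hu⟩, 1, fun he => huV ?_⟩
    have : u = 1 := congrArg Subtype.val he
    rw [this]
    exact one_mem V
  have h1 := h.isP.center_nontrivial
  obtain ⟨z, hz⟩ := exists_ne (1 : Subgroup.center U)
  intro hb
  apply hz
  have h2 : ((z : U) : K) ∈ Zc U := ⟨(z : U).2, fun u hu =>
    congrArg Subtype.val (Subgroup.mem_center_iff.1 z.2 ⟨u, hu⟩)⟩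
  rw [hb, Subgroup.mem_bot] at h2
  exact Subtype.ext (Subtype.ext h2)

omit [Finite K] hr in
theorem B_le_norm (h : Split P r U) : P.B ≤ Subgroup.normalizer (Zc U : Set K) := by
  have h1 : ∀ b ∈ P.B, ∀ z ∈ Zc U, b * z * b⁻¹ ∈ Zc U := by
    intro b hb z hz
    refine ⟨h.norm b hb z hz.1, fun u hu => ?_⟩
    have h2 := hz.2 (b⁻¹ * u * b) (by
      have := h.norm b⁻¹ (inv_mem hb) u hu
      rwa [inv_inv] at this)
    calc u * (b * z * b⁻¹) = b * ((b⁻¹ * u * b) * z) * b⁻¹ := by group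
      _ = b * (z * (b⁻¹ * u * b)) * b⁻¹ := by rw [h2]
      _ = b * z * b⁻¹ * u := by group
  intro b hb
  rw [mem_norm]
  intro z
  refine ⟨h1 b hb z, fun hz => ?_⟩
  have h2 := h1 b⁻¹ (inv_mem hb) _ hz
  have e : b⁻¹ * (b * z * b⁻¹) * b⁻¹⁻¹ = z := by group
  rwa [e] at h2

theorem norm_ne_top [IsSimpleGroup K] (h : Split P r U) (hne : P.S.Nonempty) :
    Subgroup.normalizer (Zc U : Set K) ≠ ⊤ := by
  intro ht
  have hN : (Zc U).Normal := Subgroup.normalizer_eq_top_iff.1 ht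
  rcases hN.eq_bot_or_eq_top with h1 | h1
  · exact Zc_ne_bot h hne h1
  · obtain ⟨s, hs⟩ := hne
    have hUt : U = ⊤ := top_le_iff.1 (h1 ▸ fun z hz => hz.1)
    exact LieExceptional.BNPairCore.not_mem_B hs (h.le (by rw [hUt]; trivial))

/-- **The parabolic subgroup `N(Z(U))`.** -/
theorem vz_of_center [IsSimpleGroup K] (h : Split P r U) (hne : P.S.Nonempty) (V : Subgroup K)
    (hV : ∀ v, v ∈ V ↔ ∀ k ∈ Subgroup.normalizer (Zc U : Set K), k⁻¹ * v * k ∈ U)
    {x : K} (hx : x ∈ Subgroup.normalizer (Zc U : Set K)) (hreg : ∀ u ∈ V, x * u = u * x → u = 1) :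
    H713.VZ K x := by
  refine vz_of_par h _ (B_le_norm h) (norm_ne_top h hne) V hV ?_ hx hreg
  intro β hβ
  have hZ : ∀ z, z ∈ Zc U ↔ β z ∈ Zc U := by
    intro z
    rw [mem_Zc, mem_Zc, ← hβ]
    refine and_congr_right fun _ => ⟨fun hz u hu => ?_, fun hz u hu => ?_⟩
    · have h1 := hz (β.symm u) (by rw [hβ, MulEquiv.apply_symm_apply]; exact hu)
      have h2 := congrArg β h1
      rwa [map_mul, map_mul, MulEquiv.apply_symm_apply] at h2
    · apply β.injective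
      rw [map_mul, map_mul]
      exact hz _ ((hβ u).1 hu)
  intro k
  rw [mem_norm, mem_norm]
  constructor
  · intro hk z
    have h1 := hk (β.symm z)
    have h2 : z ∈ Zc U ↔ β.symm z ∈ Zc U := by rw [hZ (β.symm z), MulEquiv.apply_symm_apply]
    rw [h2, h1, hZ, map_mul, map_mul, map_inv, MulEquiv.apply_symm_apply]
  · intro hk z
    rw [hZ z, hk, hZ (k * z * k⁻¹), map_mul, map_mul, map_inv]

end Cfsg.Agent.H612.PTwo
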